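import Cfsg.Agent.OAut.OutD
import Cfsg.Agent.OAut.D4b
import Cfsg.Agent.SimO.Plus
import Cfsg.Agent.AutO.Psc

/-!
Triality normalises the inner-diagonal automorphisms of `PΩ₈⁺(q)`.
-/

set_option autoImplicit false

namespace Cfsg.Agent.OAut

open QuadraticMap Cfsg.Agent.ClassO
open Cfsg.Agent.Orth hiding map_mul

section gen
variable {F V : Type*} [Field F] [AddCommGroup V] [Module F V] {Q : QuadraticForm F V}

theorem qaut_eq_cO (t : SemiSim Q) : t.qaut = AutO.cO Q (SimO.ofSS t) := by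
  refine SemiSim.ext_qaut fun g => ?_
  rw [SemiSim.qaut_mk]
  refine Eq.trans ?_ (AutO.cO_mk (SimO.ofSS t) g).symm
  refine congrArg (fun x => (QuotientGroup.mk x : CG Q ⧸ Subgroup.center (CG Q))) ?_
  exact cg_ext fun v => rfl

end gen

section D4

variable {F : Type*} [Field F] [Fintype F]

local notation "PP" => MulAut (CG (qfPlus 4 F) ⧸ Subgroup.center (CG (qfPlus 4 F)))

/-- the inner-diagonal subgroup -/
noncomputable def J4 (F : Type*) [Field F] [Fintype F] [hG : AutO.EvG (qfPlus 4 F)] :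
    Subgroup (MulAut (CG (qfPlus 4 F) ⧸ Subgroup.center (CG (qfPlus 4 F)))) :=
  (AutO.sg (qfPlus 4 F)).ker.map (AutO.dO _)

variable [hG : AutO.EvG (qfPlus 4 F)]

theorem dS_mem (a : Fin 4 → Fˣ) (μ : Fˣ) : (dS a μ).qaut ∈ J4 F := by
  have h1 : AutO.IsSemi (qfPlus 4 F) ((SimO.ofSS (dS a μ) : AutO.GamO (qfPlus 4 F)) : Equiv.Perm _) 1 μ :=
    ⟨fun x y => map_add (dS a μ).T x y, (dS a μ).smul', (dS a μ).q'⟩
  obtain ⟨g, hg, hgq⟩ := AutO.exists_toGam h1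
  have hP : AutO.PlusT (qfPlus 4 F) := AutO.plusT_plus 4
  refine ⟨g, ?_, ?_⟩
  · change AutO.sg _ g = 1
    rw [← AutO.sw_sg, ← hg]
    refine AutO.sw_eq_one_of_fix _ (finrank_V 4 F) (TS_U0 4 F) (finrank_U0 4 F) ?_
    ext x
    constructor
    · rintro ⟨u, hu, rfl⟩
      rw [mem_U0] at hu ⊢
      intro i
      change ((μ * (a i)⁻¹ : Fˣ) : F) * u (.inr i) = 0
      rw [hu, mul_zero]
    · intro hx
      refine ⟨(dS a μ).T.symm x, ?_, (dS a μ).T.apply_symm_apply x⟩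
      rw [mem_U0] at hx ⊢
      intro i
      change ((μ⁻¹ * a i : Fˣ) : F) * x (.inr i) = 0
      rw [hx, mul_zero]
  · rw [qaut_eq_cO, hg]; rfl

theorem exists_gA (μ : Fˣ) : ∃ g : AutO.SimG (qfPlus 4 F), AutO.sg _ g = 1 ∧ AutO.mu _ g = μ ∧
    AutO.dO _ g = (dA μ).qaut := by
  have h1 : AutO.IsSemi (qfPlus 4 F) ((SimO.ofSS (dA μ) : AutO.GamO (qfPlus 4 F)) : Equiv.Perm _) 1 μ :=
    ⟨fun x y => map_add (dA μ).T x y, (dA μ).smul', (dA μ).q'⟩
  obtain ⟨g, hg, hgq⟩ := AutO.exists_toGam h1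
  have h2 : AutO.dO _ g = (dA μ).qaut := by rw [qaut_eq_cO, hg]; rfl
  refine ⟨g, ?_, AutO.mu_eq hgq, h2⟩
  -- the parity
  have h3 := dS_mem (F := F) (fun _ => μ) μ
  obtain ⟨g', hg', h4⟩ := h3
  have h5 : AutO.dO _ g' = AutO.dO _ g := by rw [h2]; exact h4
  obtain ⟨c, hc⟩ := (AutO.dO_eq_iff _ _).1 h5
  have h6 := congrArg (AutO.sg _) hc
  rw [map_mul, AutO.sg_sc, one_mul] at h6
  rw [← h6]
  exact hg'

/-- spinor norm in even characteristic -/
theorem spin_trivial (h : ¬ Odd (Fintype.card F)) (k : OGrp (qfPlus 4 F)) : spinHom hG.nd hG.rg k = 1 := by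
  have h2 : ringChar F = 2 := by
    by_contra h3
    have := FiniteField.odd_card_of_char_ne_two h3
    exact h (Nat.odd_iff.2 this)
  have h1 : spinHom hG.nd hG.rg = 1 := by
    apply AutO.hom_ext_refl hG.rg
    intro v hv
    rw [spinHom_refl, MonoidHom.one_apply, sqc, if_pos (FiniteField.isSquare_of_char_two h2 _)]
  rw [h1]; rfl

/-- the vector `(μ⁻¹, 1, 1, 1)` -/
def bvec (μ : Fˣ) : Fin 4 → Fˣ := fun i => if i = 0 then μ⁻¹ else 1

omit [Fintype F] hG in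
theorem ofSS_dC (μ : Fˣ) : SimO.ofSS (dC μ) = AutO.scl (qfPlus 4 F) μ * AutO.ofO _ (hd 4 F (bvec μ)) := by
  refine AutO.gam_ext fun v => ?_
  funext j
  change (dS (fun i => if i = 0 then 1 else μ) (μ ^ 2)).T v j = (μ : F) * (dS (bvec μ) 1).T v j
  rcases j with j | j
  · rw [dS_inl, dS_inl, bvec]
    by_cases hj : j = 0
    · simp [hj]
    · simp [hj]
  · rw [dS_inr, dS_inr, bvec]
    have := μ.ne_zero
    by_cases hj : j = 0
    · simp only [hj, if_true, inv_one, mul_one, inv_inv, one_mul, Units.val_pow_eq_pow_val]; ring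
    · simp only [hj, if_false, inv_one, mul_one, Units.val_mul, Units.val_pow_eq_pow_val, Units.val_inv_eq_inv_val,
        Units.val_one, one_mul]
      field_simp

theorem spin_bvec {μ : Fˣ} (hμ : sqc (μ : F) = -1) : spinHom hG.nd hG.rg (hd 4 F (bvec μ)) = -1 := by
  rw [spin_hd]
  have : (((∏ i, bvec μ i) : Fˣ) : F) = (μ : F)⁻¹ := by
    rw [Fin.prod_univ_four]
    simp [bvec]
  rw [this]
  have h5 : sqc (μ : F)⁻¹ = sqc (μ : F) := sqc_eq_of_iff isSquare_inv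
  rw [h5, hμ]

theorem cO_inn {k : OGrp (qfPlus 4 F)} (h1 : parityHom hG.nd hG.rg k = 1) (h2 : spinHom hG.nd hG.rg k = 1) :
    AutO.cO _ (AutO.ofO (qfPlus 4 F) k) ∈ Cfsg.Inn (AutO.T (qfPlus 4 F)) := by
  obtain ⟨g, rfl⟩ := AutO.exists_om hG.nd hG.rg h1 h2
  exact ⟨AutO.mk _ g, (AutO.cO_ofO g).symm⟩

theorem cO_mem_of_parity {K : Subgroup PP}
    (hI : Cfsg.Inn (CG (qfPlus 4 F) ⧸ Subgroup.center (CG (qfPlus 4 F))) ≤ K)
    (hC : ∀ μ : Fˣ, (dC μ).qaut ∈ K) {k : OGrp (qfPlus 4 F)} (hkp : parityHom hG.nd hG.rg k = 1) :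
    AutO.cO _ (AutO.ofO (qfPlus 4 F) k) ∈ K := by
  rcases Int.units_eq_one_or (spinHom hG.nd hG.rg k) with h | h
  · exact hI (cO_inn hkp h)
  · have hodd : Odd (Fintype.card F) := by
      by_contra hcon
      rw [spin_trivial hcon] at h
      exact absurd h (by decide)
    obtain ⟨μ, hμ⟩ := SimO.exists_ns hodd
    have h2 : AutO.cO _ (AutO.ofO (qfPlus 4 F) (hd 4 F (bvec μ))) ∈ K := by
      have h3 := hC μ
      rw [qaut_eq_cO, ofSS_dC, map_mul, AutO.cO_scl, one_mul] at h3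
      exact h3
    have h5 : AutO.cO _ (AutO.ofO (qfPlus 4 F) (k * (hd 4 F (bvec μ))⁻¹)) ∈ K :=
      hI (cO_inn (by rw [map_mul, map_inv, hkp, parity_hd]; rfl) (by rw [map_mul, map_inv, h, spin_bvec hμ]; rfl))
    have h6 := K.mul_mem h5 h2
    rwa [← map_mul, ← map_mul, inv_mul_cancel_right] at h6

/-- the inner-diagonal group is generated by the inner automorphisms and the diagonal ones -/
theorem J4_le {K : Subgroup PP} (hI : Cfsg.Inn (CG (qfPlus 4 F) ⧸ Subgroup.center (CG (qfPlus 4 F))) ≤ K)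
    (hA : ∀ μ : Fˣ, (dA μ).qaut ∈ K) (hC : ∀ μ : Fˣ, (dC μ).qaut ∈ K) : J4 F ≤ K := by
  rintro _ ⟨g, hg, rfl⟩
  have hg' : AutO.sg (qfPlus 4 F) g = 1 := hg
  obtain ⟨a, ha1, ha2, ha3⟩ := exists_gA (AutO.mu (qfPlus 4 F) g)
  obtain ⟨k, hk⟩ := AutO.exists_ofS (g := g * a⁻¹) (by rw [map_mul, map_inv, ha2, mul_inv_cancel])
  have hgk : g = AutO.ofS _ k * a := by rw [← hk, inv_mul_cancel_right]
  have hkp : parityHom hG.nd hG.rg k = 1 := by
    have := congrArg (AutO.sg _) hgk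
    rw [map_mul, ha1, mul_one, hg', AutO.sg_ofS] at this
    exact this.symm
  rw [hgk, map_mul, ha3]
  exact K.mul_mem (cO_mem_of_parity hI hC hkp) (hA _)

theorem inn_le_J4 : Cfsg.Inn (CG (qfPlus 4 F) ⧸ Subgroup.center (CG (qfPlus 4 F))) ≤ J4 F := by
  intro x hx
  obtain ⟨y, rfl⟩ := hx
  obtain ⟨g, rfl⟩ := QuotientGroup.mk_surjective y
  refine ⟨AutO.ofS _ (g : OGrp (qfPlus 4 F)), ?_, ?_⟩
  · change AutO.sg _ _ = 1
    rw [AutO.sg_ofS]
    exact ((mem_commutator_iff_homs hG.nd hG.rg _).1 g.2).1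
  · exact AutO.cO_ofO g

theorem tau_conj_J4 {x : PP} (hx : x ∈ J4 F) : (tau : PP) * x * (tau : PP)⁻¹ ∈ J4 F := by
  have h1 : J4 F ≤ (J4 F).comap (MulAut.conj (tau : PP)).toMonoidHom := by
    refine J4_le ?_ (fun μ => ?_) (fun μ => ?_)
    · rintro _ ⟨y, rfl⟩
      change (tau : PP) * MulAut.conj y * (tau : PP)⁻¹ ∈ J4 F
      have : (tau : PP) * MulAut.conj y * (tau : PP)⁻¹ = MulAut.conj ((tau : PP) y) := by
        ext z
        change (tau : PP) (y * (tau : PP)⁻¹ z * y⁻¹) = (tau : PP) y * z * ((tau : PP) y)⁻¹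
        rw [map_mul, map_mul, map_inv, MulAut.apply_inv_self]
      rw [this]
      exact inn_le_J4 ⟨_, rfl⟩
    · change (tau : PP) * (dA μ).qaut * (tau : PP)⁻¹ ∈ J4 F
      rw [tau_mul_qaut (srel_d μ), mul_inv_cancel_right]
      exact dS_mem _ _
    · change (tau : PP) * (dC μ).qaut * (tau : PP)⁻¹ ∈ J4 F
      rw [tau_mul_qaut (srel_d μ).cyc.cyc, mul_inv_cancel_right]
      exact dS_mem _ _
  exact h1 hx

theorem semi_conj_J4 {α x : PP} (hα : α ∈ semiSub (qfPlus 4 F)) (hx : x ∈ J4 F) : α * x * α⁻¹ ∈ J4 F := by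
  obtain ⟨t, rfl⟩ := hα
  obtain ⟨g, hg, rfl⟩ := hx
  have hg' : AutO.sg (qfPlus 4 F) g = 1 := hg
  obtain ⟨g', h1, -⟩ := AutO.exists_conj_sim (SimO.ofSS t) g (AutO.mu_spec g)
  refine ⟨g', ?_, ?_⟩
  · change AutO.sg (qfPlus 4 F) g' = 1
    rw [AutO.sg_conj _ h1, hg']
  · rw [qaut_eq_cO]
    change AutO.cO _ (AutO.toGam _ g') = AutO.cO _ _ * AutO.cO _ (AutO.toGam _ g) * (AutO.cO _ _)⁻¹
    rw [← map_mul, ← map_inv, ← map_mul, h1]

/-- **The inner-diagonal automorphisms of `PΩ₈⁺(q)` form a normal subgroup.** -/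
theorem normal_J4 : (J4 F).Normal := by
  refine ⟨fun x hx α => ?_⟩
  have h3 : (tau : PP)⁻¹ = tau * tau := tau_sq.symm
  have htau : ∀ x : PP, x ∈ J4 F → (tau : PP)⁻¹ * x * tau ∈ J4 F := by
    intro x hx
    have := tau_conj_J4 (tau_conj_J4 hx)
    have h4 : (tau : PP)⁻¹ * x * tau = tau * (tau * x * (tau : PP)⁻¹) * (tau : PP)⁻¹ := by
      have h5 : (tau : PP) = (tau : PP)⁻¹ * (tau : PP)⁻¹ := by rw [← mul_inv_rev, ← h3, inv_inv]
      calc (tau : PP)⁻¹ * x * tau = (tau * tau) * x * ((tau : PP)⁻¹ * (tau : PP)⁻¹) := by rw [← h3, ← h5]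
        _ = _ := by group
    rwa [h4]
  rcases mem_cases α with h | h | h
  · exact semi_conj_J4 h hx
  · have h1 := tau_conj_J4 (semi_conj_J4 h hx)
    have h2 : (tau : PP) * ((tau : PP)⁻¹ * α * x * ((tau : PP)⁻¹ * α)⁻¹) * (tau : PP)⁻¹ = α * x * α⁻¹ := by group
    rwa [h2] at h1
  · have h1 := htau _ (semi_conj_J4 h hx)
    have h2 : (tau : PP)⁻¹ * ((tau : PP) * α * x * ((tau : PP) * α)⁻¹) * (tau : PP) = α * x * α⁻¹ := by group
    rwa [h2] at h1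

theorem normal_sg_four : ((AutO.sg (qfPlus 4 F)).ker.map (AutO.dO (qfPlus 4 F))).Normal := normal_J4

end D4

end Cfsg.Agent.OAut
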