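import Cfsg.Agent.OAut.OutC

/-!
Relations between triality, diagonal, graph and field automorphisms of `PΩ₈⁺(q)`.
-/

set_option autoImplicit false

namespace Cfsg.Agent.OAut

open QuadraticMap Cfsg.Agent.Orth Cfsg.Agent.ClassO

section Hom

variable {F : Type*} [Field F] {m : ℕ}

/-- Field automorphisms. -/
noncomputable def frH (m : ℕ) (F : Type*) [Field F] :
    RingAut F →* Cfsg.Out (CG (qfPlus m F) ⧸ Subgroup.center (CG (qfPlus m F))) :=
  MonoidHom.mk' (fun σ => oq (frS m σ)) (fun σ τ => (oq_frS_mul σ τ).symm)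

theorem frH_apply (σ : RingAut F) : frH m F σ = oq (frS m σ) := rfl

theorem ringAut_equiv [Fintype F] {p f : ℕ} [Fact p.Prime] (hF : Fintype.card F = p ^ f) :
    Nonempty (RingAut F ≃* Multiplicative (ZMod f)) := by
  obtain ⟨h1, h2⟩ := AutPSL.ringAut_cyclic_card F hF
  obtain ⟨e⟩ := (zmodCyclicMulEquiv h1 : Multiplicative (ZMod (Nat.card (RingAut F))) ≃* RingAut F) |>
    Nonempty.intro
  rw [h2] at e
  exact ⟨e.symm⟩

end Hom

section D4

variable {F : Type*} [Field F] [Fintype F]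

local notation "PP" => MulAut (CG (qfPlus 4 F) ⧸ Subgroup.center (CG (qfPlus 4 F)))

/-- Related triples of semisimilarities. -/
def SRel (s1 s2 s3 : SemiSim (qfPlus 4 F)) : Prop :=
  ∃ (σ : F ≃+* F) (C : F), ∀ x y z, tri (s1.T x) (s2.T y) (s3.T z) = C * σ (tri x y z)

theorem SRel.rel {s1 s2 s3 : SemiSim (qfPlus 4 F)} (h : SRel s1 s2 s3) {g1 g2 g3 : CG (qfPlus 4 F)}
    (hg : Rel g1 g2 g3) : Rel (s1.aut g1) (s2.aut g2) (s3.aut g3) := by
  obtain ⟨σ, C, h⟩ := h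
  intro x y z
  obtain ⟨x', rfl⟩ := s1.T.surjective x
  obtain ⟨y', rfl⟩ := s2.T.surjective y
  obtain ⟨z', rfl⟩ := s3.T.surjective z
  rw [SemiSim.ap_aut_T, SemiSim.ap_aut_T, SemiSim.ap_aut_T, h, h, hg]

theorem SRel.cyc {s1 s2 s3 : SemiSim (qfPlus 4 F)} (h : SRel s1 s2 s3) : SRel s2 s3 s1 := by
  obtain ⟨σ, C, h⟩ := h
  refine ⟨σ, C, fun x y z => ?_⟩
  rw [← tri_cyc (s1.T z) (s2.T x) (s3.T y), h, tri_cyc]

theorem tau_mul_qaut {s1 s2 s3 : SemiSim (qfPlus 4 F)} (h : SRel s1 s2 s3) :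
    (tau : PP) * s1.qaut = s2.qaut * tau := by
  refine SemiSim.ext_qaut fun g => ?_
  obtain ⟨g2, g3, hg⟩ := exists_rel g
  rw [MulAut.mul_apply, MulAut.mul_apply, SemiSim.qaut_mk, tau_mk (h.rel hg), tau_mk hg,
    SemiSim.qaut_mk]

/-- Reversal. -/
theorem tau_mul_qaut' {s : SemiSim (qfPlus 4 F)} (h : ∀ x y z, tri (s.T x) (s.T y) (s.T z) = tri z y x) :
    (tau : PP) * s.qaut = s.qaut * tau⁻¹ := by
  have hr : ∀ {g1 g2 g3 : CG (qfPlus 4 F)}, Rel g1 g2 g3 → Rel (s.aut g3) (s.aut g2) (s.aut g1) := by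
    intro g1 g2 g3 hg x y z
    obtain ⟨x', rfl⟩ := s.T.surjective x
    obtain ⟨y', rfl⟩ := s.T.surjective y
    obtain ⟨z', rfl⟩ := s.T.surjective z
    rw [SemiSim.ap_aut_T, SemiSim.ap_aut_T, SemiSim.ap_aut_T, h, h, hg]
  refine SemiSim.ext_qaut fun g => ?_
  obtain ⟨g1, g2, hg⟩ := exists_rel3 g
  rw [MulAut.mul_apply, MulAut.mul_apply, SemiSim.qaut_mk, tau_mk (hr hg)]
  have h1 : (tau : PP)⁻¹ (g : CG (qfPlus 4 F) ⧸ Subgroup.center (CG (qfPlus 4 F))) = g2 := by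
    rw [← tau_mk hg.cyc]
    exact MulAut.inv_apply_self _ _ _
  rw [h1, SemiSim.qaut_mk]

theorem tri_map (σ : F ≃+* F) (x y z : I8 → F) :
    tri (fun i => σ (x i)) (fun i => σ (y i)) (fun i => σ (z i)) = σ (tri x y z) := by
  unfold tri
  simp only [_root_.map_add, _root_.map_sub, _root_.map_mul]

theorem srel_fr (σ : F ≃+* F) : SRel (frS 4 σ) (frS 4 σ) (frS 4 σ) :=
  ⟨σ, 1, fun x y z => by rw [one_mul, ← tri_map]; rfl⟩

/-- The graph automorphism. -/
noncomputable def kS (F : Type*) [Field F] : SemiSim (qfPlus 4 F) := swS 0 (-1) (by rw [neg_mul_neg, one_mul])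

theorem tri_kS (x y z : I8 → F) : tri ((kS F).T x) ((kS F).T y) ((kS F).T z) = tri z y x := by
  unfold tri
  simp only [kS, swS_inl, swS_inr]
  simp
  ring

/-- The first diagonal automorphism. -/
noncomputable def dA (μ : Fˣ) : SemiSim (qfPlus 4 F) := dS (fun _ => μ) μ

/-- The second diagonal automorphism. -/
noncomputable def dB (μ : Fˣ) : SemiSim (qfPlus 4 F) :=
  dS (fun i => if i = 0 then μ ^ 2 else μ) (μ ^ 3)

/-- The third diagonal automorphism. -/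
noncomputable def dC (μ : Fˣ) : SemiSim (qfPlus 4 F) :=
  dS (fun i => if i = 0 then 1 else μ) (μ ^ 2)

theorem srel_d (μ : Fˣ) : SRel (dA μ) (dB μ) (dC μ) := by
  refine ⟨RingEquiv.refl F, (μ : F) ^ 3, fun x y z => ?_⟩
  have hμ := μ.ne_zero
  unfold tri dA dB dC
  simp only [dS_inl, dS_inr]
  simp only [Units.val_mul, Units.val_inv_eq_inv_val, Units.val_pow_eq_pow_val, RingEquiv.refl_apply,
    one_ne_zero, if_false, if_true, Units.val_one]
  simp
  field_simp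

end D4

end Cfsg.Agent.OAut
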