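import Cfsg.Agent.OAut.SmallGrp

/-!
Abstract recognition of `S₃ × R` and `S₄ × R`.
-/

set_option autoImplicit false

namespace Cfsg.Agent.OAut

variable {X R : Type*} [Group X] [Group R]

theorem zpow3_mem {t : X} {S : Subgroup X} (h3 : t ^ 3 = 1) (hS : t ∉ S) {i : ZMod 3}
    (h : t ^ i.val ∈ S) : i = 0 := by
  have key : ∀ i : ZMod 3, i = 0 ∨ i.val = 1 ∨ i.val = 2 := by decide
  have ht2 : t ^ 2 = t⁻¹ := by rw [eq_inv_iff_mul_eq_one, ← pow_succ, h3]
  rcases key i with h1 | h1 | h1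
  · exact h1
  · rw [h1, pow_one] at h
    exact absurd h hS
  · rw [h1, ht2] at h
    exact absurd (by rw [← inv_inv t]; exact S.inv_mem h) hS

/-- `x k φ = 1` is impossible. -/
theorem no_k {t k : X} {S : Subgroup X} (h3 : t ^ 3 = 1) (hk : k * k = 1) (hkt : k * t * k⁻¹ = t⁻¹)
    (hS : t ∉ S) (hkS : k ∈ S) {y : X} (hy : y ∈ S) (hyt : Commute y t) {x : X}
    (hx2 : t * x * t⁻¹ ∈ S) : x * k * y ≠ 1 := by
  intro h
  have hkinv : k⁻¹ = k := inv_eq_of_mul_eq_one_left hk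
  have ht2 : t * t = t⁻¹ := by rw [eq_inv_iff_mul_eq_one, ← pow_two, ← pow_succ, h3]
  have h2 : t * k * t⁻¹ = t⁻¹ * k := by
    have h3' : k * t⁻¹ = t * k := by
      rw [← hkt, hkinv]
      calc k * (k * t * k) = (k * k) * t * k := by group
        _ = _ := by rw [hk, one_mul]
    rw [mul_assoc, h3', ← mul_assoc, ht2]
  have h4 : t * y * t⁻¹ = y := by
    rw [← hyt.eq, mul_inv_cancel_right]
  have h5 : t * (x * k * y) * t⁻¹ = (t * x * t⁻¹) * (t⁻¹ * k) * y := by
    rw [← h2]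
    calc t * (x * k * y) * t⁻¹ = (t * x * t⁻¹) * (t * k * t⁻¹) * (t * y * t⁻¹) := by group
      _ = _ := by rw [h4]
  rw [h, mul_one, mul_inv_cancel] at h5
  apply hS
  have h6 : t = (k * y) * (t * x * t⁻¹) := by
    have h7 : (t * x * t⁻¹) * (t⁻¹ * k) = y⁻¹ := eq_inv_of_mul_eq_one_left h5.symm
    have h8 : (t * x * t⁻¹) = y⁻¹ * k⁻¹ * t := by rw [← h7]; group
    rw [h8]; group
  rw [h6]
  exact S.mul_mem (S.mul_mem hkS hy) hx2

/-- Recognition of `S₃ × R`. -/
theorem recog_S3 [Finite X] {t k : X} {S : Subgroup X} {φ : R →* X} (h3 : t ^ 3 = 1) (hk : k * k = 1)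
    (hkt : k * t * k⁻¹ = t⁻¹) (hS : t ∉ S) (hkS : k ∈ S) (hφS : ∀ σ, φ σ ∈ S)
    (hφt : ∀ σ, Commute (φ σ) t) (hφk : ∀ σ, Commute (φ σ) k) (hφ : ∀ σ, φ σ = 1 → σ = 1)
    (hcard : Nat.card X = 6 * Nat.card R) : Nonempty (X ≃* Equiv.Perm (Fin 3) × R) := by
  obtain ⟨Φ, hΦ1, hΦ2⟩ := H20.exists_dihedralHom (N := 3) h3 hk hkt
  have hcomm : ∀ (g : DihedralGroup 3) (σ : R), Commute (Φ g) (φ σ) := by
    intro g σ
    rcases g with i | i
    · rw [hΦ1]
      exact ((hφt σ).symm.pow_left _)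
    · rw [hΦ2]
      exact Commute.mul_left (hφk σ).symm ((hφt σ).symm.pow_left _)
  have hinj : Function.Injective (Φ.noncommCoprod φ hcomm) := by
    rw [injective_iff_map_eq_one]
    rintro ⟨g, σ⟩ h
    change Φ g * φ σ = 1 at h
    rcases g with i | i
    · rw [hΦ1] at h
      have h3' : i = 0 := by
        apply zpow3_mem h3 hS
        rw [eq_inv_of_mul_eq_one_left h]
        exact S.inv_mem (hφS σ)
      subst h3'
      have h4 : (0 : ZMod 3).val = 0 := rfl
      rw [h4, pow_zero, one_mul] at h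
      rw [hφ σ h]
      rfl
    · exfalso
      rw [hΦ2] at h
      have h3' : i = 0 := by
        apply zpow3_mem h3 hS
        have h4 : t ^ i.val = k⁻¹ * (φ σ)⁻¹ := by
          rw [← eq_inv_of_mul_eq_one_left h]; group
        rw [h4]
        exact S.mul_mem (S.inv_mem hkS) (S.inv_mem (hφS σ))
      subst h3'
      have h4 : (0 : ZMod 3).val = 0 := rfl
      rw [h4, pow_zero, mul_one] at h
      refine no_k (x := 1) h3 hk hkt hS hkS (hφS σ) (hφt σ) ?_ (by rwa [one_mul])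
      rw [mul_one, mul_inv_cancel]
      exact S.one_mem
  have hcard' : Nat.card (DihedralGroup 3 × R) = Nat.card X := by
    rw [Nat.card_prod, DihedralGroup.nat_card, hcard]
  have hfin : Finite (DihedralGroup 3 × R) := Finite.of_injective _ hinj
  have hb : Function.Bijective (Φ.noncommCoprod φ hcomm) :=
    (Nat.bijective_iff_injective_and_card _).2 ⟨hinj, hcard'⟩
  obtain ⟨e1⟩ := d3_equiv
  exact ⟨(MulEquiv.ofBijective _ hb).symm.trans (MulEquiv.prodCongr e1 (MulEquiv.refl R))⟩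

/-- Recognition of `S₄ × R`. -/
theorem recog_S4 [Finite X] {a b t k : X} {S : Subgroup X} {φ : R →* X} (ha : a ^ 2 = 1)
    (hb : b ^ 2 = 1) (hab : Commute a b) (h3 : t ^ 3 = 1) (hk : k * k = 1)
    (hkt : k * t * k⁻¹ = t⁻¹) (hta : t * a * t⁻¹ = b) (htb : t * b * t⁻¹ = a * b)
    (hka : k * a * k⁻¹ = b) (hkb : k * b * k⁻¹ = a) (hS : t ∉ S) (hkS : k ∈ S) (hφS : ∀ σ, φ σ ∈ S)
    (haS : a ∈ S) (hbS : b ∈ S)
    (hφt : ∀ σ, Commute (φ σ) t) (hφk : ∀ σ, Commute (φ σ) k) (hφa : ∀ σ, Commute (φ σ) a)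
    (hφ0 : ∀ σ, φ σ = 1 → σ = 1) (hφ1 : ∀ σ, a * φ σ ≠ 1) (hφ2 : ∀ σ, b * φ σ ≠ 1)
    (hφ3 : ∀ σ, a * b * φ σ ≠ 1)
    (hcard : Nat.card X = 24 * Nat.card R) : Nonempty (X ≃* Equiv.Perm (Fin 4) × R) := by
  obtain ⟨Φ, hΦ1, hΦ2⟩ := exists_whom ha hb hab h3 hk hkt hta htb hka hkb
  have hφb : ∀ σ, Commute (φ σ) b := by
    intro σ
    rw [← hta]
    exact Commute.mul_right (Commute.mul_right (hφt σ) (hφa σ)) (hφt σ).inv_right
  have hcomm : ∀ (g : W24) (σ : R), Commute (Φ g) (φ σ) := by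
    rintro ⟨v, g⟩ σ
    rcases g with i | i
    · rw [hΦ1]
      exact Commute.mul_left (Commute.mul_left ((hφa σ).symm.pow_left _)
        ((hφb σ).symm.pow_left _)) ((hφt σ).symm.pow_left _)
    · rw [hΦ2]
      exact Commute.mul_left (Commute.mul_left ((hφa σ).symm.pow_left _)
        ((hφb σ).symm.pow_left _)) (Commute.mul_left (hφk σ).symm ((hφt σ).symm.pow_left _))
  have hcases : ∀ v : V4, v = 1 ∨ v = (Multiplicative.ofAdd 1, 1) ∨ v = (1, Multiplicative.ofAdd 1) ∨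
      v = (Multiplicative.ofAdd 1, Multiplicative.ofAdd 1) := by decide
  have hinj : Function.Injective (Φ.noncommCoprod φ hcomm) := by
    rw [injective_iff_map_eq_one]
    rintro ⟨⟨v, g⟩, σ⟩ h
    change Φ ⟨v, g⟩ * φ σ = 1 at h
    obtain ⟨x, hx⟩ : ∃ x, x = a ^ (Multiplicative.toAdd v.1).val * b ^ (Multiplicative.toAdd v.2).val :=
      ⟨_, rfl⟩
    have hxS : x ∈ S := by rw [hx]; exact S.mul_mem (S.pow_mem haS _) (S.pow_mem hbS _)
    have hxt : t * x * t⁻¹ ∈ S := by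
      have : t * x * t⁻¹ = (t * a * t⁻¹) ^ (Multiplicative.toAdd v.1).val *
          (t * b * t⁻¹) ^ (Multiplicative.toAdd v.2).val := by
        rw [hx, conj_pow, conj_pow]; group
      rw [this, hta, htb]
      exact S.mul_mem (S.pow_mem hbS _) (S.pow_mem (S.mul_mem haS hbS) _)
    rcases g with i | i
    · rw [hΦ1, ← hx] at h
      have h3' : i = 0 := by
        apply zpow3_mem h3 hS
        have h4 : t ^ i.val = x⁻¹ * (φ σ)⁻¹ := by
          rw [← eq_inv_of_mul_eq_one_left h]; group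
        rw [h4]
        exact S.mul_mem (S.inv_mem hxS) (S.inv_mem (hφS σ))
      subst h3'
      have h4 : (0 : ZMod 3).val = 0 := rfl
      rw [h4, pow_zero, mul_one, hx] at h
      have h0 : (0 : ZMod 2).val = 0 := rfl
      have h1 : (1 : ZMod 2).val = 1 := rfl
      rcases hcases v with rfl | rfl | rfl | rfl
      · change a ^ (0 : ZMod 2).val * b ^ (0 : ZMod 2).val * φ σ = 1 at h
        rw [h0, pow_zero, pow_zero, one_mul, one_mul] at h
        rw [hφ0 σ h]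
        rfl
      · change a ^ (1 : ZMod 2).val * b ^ (0 : ZMod 2).val * φ σ = 1 at h
        rw [h0, h1, pow_zero, pow_one, mul_one] at h
        exact absurd h (hφ1 σ)
      · change a ^ (0 : ZMod 2).val * b ^ (1 : ZMod 2).val * φ σ = 1 at h
        rw [h0, h1, pow_zero, pow_one, one_mul] at h
        exact absurd h (hφ2 σ)
      · change a ^ (1 : ZMod 2).val * b ^ (1 : ZMod 2).val * φ σ = 1 at h
        rw [h1, pow_one, pow_one] at h
        exact absurd h (hφ3 σ)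
    · exfalso
      rw [hΦ2, ← hx] at h
      have h3' : i = 0 := by
        apply zpow3_mem h3 hS
        have h4 : t ^ i.val = k⁻¹ * x⁻¹ * (φ σ)⁻¹ := by
          rw [← eq_inv_of_mul_eq_one_left h]; group
        rw [h4]
        exact S.mul_mem (S.mul_mem (S.inv_mem hkS) (S.inv_mem hxS)) (S.inv_mem (hφS σ))
      subst h3'
      have h4 : (0 : ZMod 3).val = 0 := rfl
      rw [h4, pow_zero, mul_one] at h
      exact no_k h3 hk hkt hS hkS (hφS σ) (hφt σ) hxt h
  have hcard' : Nat.card (W24 × R) = Nat.card X := by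
    rw [Nat.card_prod, card_W24, hcard]
  have hfin : Finite (W24 × R) := Finite.of_injective _ hinj
  have hbij : Function.Bijective (Φ.noncommCoprod φ hcomm) :=
    (Nat.bijective_iff_injective_and_card _).2 ⟨hinj, hcard'⟩
  obtain ⟨e1⟩ := w24_equiv
  exact ⟨(MulEquiv.ofBijective _ hbij).symm.trans (MulEquiv.prodCongr e1 (MulEquiv.refl R))⟩

end Cfsg.Agent.OAut
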