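import Cfsg.Agent.OAut.OutD
import Cfsg.Agent.OAut.OutE

/-!
The outer automorphism group of `PΩ₈⁺(q)`.
-/

set_option autoImplicit false

namespace Cfsg.Agent.OAut

open QuadraticMap Cfsg.Agent.Orth Cfsg.Agent.ClassO

variable {F : Type*} [Field F] [Fintype F]

/-- The class of the triality automorphism. -/
noncomputable def tq (F : Type*) [Field F] [Fintype F] : Cfsg.Out (CG (qfPlus 4 F) ⧸ Subgroup.center (CG (qfPlus 4 F))) :=
  QuotientGroup.mk' (Cfsg.Inn (CG (qfPlus 4 F) ⧸ Subgroup.center (CG (qfPlus 4 F)))) tau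

theorem tq_pow : tq F ^ 3 = 1 :=
  congrArg (QuotientGroup.mk' (Cfsg.Inn (CG (qfPlus 4 F) ⧸ Subgroup.center (CG (qfPlus 4 F)))))
    (tau_pow_three (F := F))

theorem tq_mul {s1 s2 s3 : SemiSim (qfPlus 4 F)} (h : SRel s1 s2 s3) : tq F * oq s1 = oq s2 * tq F :=
  congrArg (QuotientGroup.mk' (Cfsg.Inn (CG (qfPlus 4 F) ⧸ Subgroup.center (CG (qfPlus 4 F)))))
    (tau_mul_qaut h)

theorem tq_conj {s1 s2 s3 : SemiSim (qfPlus 4 F)} (h : SRel s1 s2 s3) :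
    tq F * oq s1 * (tq F)⁻¹ = oq s2 := mul_inv_eq_of_eq_mul (tq_mul h)

theorem tq_mul_k : tq F * oq (kS F) = oq (kS F) * (tq F)⁻¹ :=
  congrArg (QuotientGroup.mk' (Cfsg.Inn (CG (qfPlus 4 F) ⧸ Subgroup.center (CG (qfPlus 4 F)))))
    (tau_mul_qaut' (s := kS F) tri_kS)

theorem k_mul_k : oq (kS F) * oq (kS F) = 1 := oq_swS_mul _ _ _

theorem kconj_of {X : Type*} [Group X] {t k : X} (hk : k * k = 1) (h : t * k = k * t⁻¹) :
    k * t * k⁻¹ = t⁻¹ := by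
  have hkinv : k⁻¹ = k := inv_eq_of_mul_eq_one_left hk
  rw [hkinv, mul_assoc, h, ← mul_assoc, hk, one_mul]

theorem k_conj : oq (kS F) * tq F * (oq (kS F))⁻¹ = (tq F)⁻¹ := kconj_of k_mul_k tq_mul_k

theorem tq_not_mem : tq F ∉ osub (qfPlus 4 F) := fun h => tau_not_mem (mk_mem_osub.1 h)

theorem fr_tq (σ : RingAut F) : Commute (frH 4 F σ) (tq F) := (tq_mul (srel_fr σ)).symm

theorem fr_k (σ : RingAut F) : Commute (frH 4 F σ) (oq (kS F)) :=
  oq_frS_swS σ 0 (-1) _ (by rw [Units.val_neg, Units.val_one, map_neg, map_one])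

theorem fr_eq_one' {m : ℕ} (hm : 3 ≤ m) {t : SemiSim (qfPlus m F)} (ht : t.σ = RingEquiv.refl F)
    {σ : RingAut F} (h : oq t * frH m F σ = 1) : σ = 1 := by
  have h2 : oq (t.comp (frS m σ)) = 1 := by rw [oq_comp]; exact h
  have h1 := σ_eq_of_oq (good_plus (F := F) hm) h2
  change (frS m σ).σ.trans t.σ = RingEquiv.refl F at h1
  rw [ht] at h1
  exact h1

theorem fr_eq_one {m : ℕ} (hm : 3 ≤ m) {σ : RingAut F} (h : frH m F σ = 1) : σ = 1 := by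
  have h1 := σ_eq_of_oq (good_plus (F := F) hm) (t := frS m σ) h
  exact h1

theorem oq_ne_of_mult {m : ℕ} (hm : 3 ≤ m) {t : SemiSim (qfPlus m F)} (ht : ¬ IsSquare t.c)
    (ht2 : t.σ = RingEquiv.refl F) (σ : RingAut F) : oq t * frH m F σ ≠ 1 := by
  intro h
  have h1 := fr_eq_one' hm ht2 h
  subst h1
  have h2 : oq t = 1 := by
    have h3 : oq t * frH m F 1 = oq t := by rw [map_one, mul_one]
    rw [← h3]; exact h
  exact ht (isSquare_of_oq (good_plus (F := F) hm) h2)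

theorem card_out_D4_even {f : ℕ} (hf : 1 ≤ f) (hF : Fintype.card F = 2 ^ f) :
    Nat.card (Cfsg.Out (CG (qfPlus 4 F) ⧸ Subgroup.center (CG (qfPlus 4 F)))) =
      6 * Nat.card (RingAut F) := by
  have h2 : Fact (Nat.Prime 2) := ⟨Nat.prime_two⟩
  rw [card_out_plus hf hF (le_refl 4), if_pos rfl, if_pos rfl, (AutPSL.ringAut_cyclic_card F hF).2]

/-- **`Out(PΩ₈⁺(2^f))`.** -/
theorem out_D4_even {f : ℕ} (hf : 1 ≤ f) (hF : Fintype.card F = 2 ^ f) :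
    Nonempty (Cfsg.Out (CG (qfPlus 4 F) ⧸ Subgroup.center (CG (qfPlus 4 F))) ≃*
      Equiv.Perm (Fin 3) × RingAut F) :=
  recog_S3 tq_pow k_mul_k k_conj tq_not_mem (oq_mem _) (fun σ => oq_mem (frS 4 σ)) fr_tq fr_k
    (fun σ => fr_eq_one (by norm_num)) (card_out_D4_even hf hF)

/-! ### Odd characteristic -/

theorem exists_nonsquare_unit (hodd : Odd (Fintype.card F)) : ∃ μ : Fˣ, ¬ IsSquare (μ : F) := by
  obtain ⟨c, hc⟩ := FiniteField.exists_nonsquare (F := F) (by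
    intro h
    have : CharP F 2 := by
      rw [← h]; exact ringChar.charP F
    exact Orth.two_ne_zero_of_odd hodd (CharTwo.two_eq_zero))
  exact ⟨Units.mk0 c (by rintro rfl; exact hc IsSquare.zero), hc⟩

theorem dA_mul (μ : Fˣ) : oq (dA μ) * oq (dA μ) = 1 := by
  have h0 : oq (dA μ) * oq (dA μ) = oq (dS ((fun _ : Fin 4 => μ) * fun _ => μ) (μ * μ)) :=
    oq_dS_mul _ _ _ _
  have h1 : oq (dS (fun _ : Fin 4 => μ) (μ * μ)) * oq (dS (fun _ : Fin 4 => μ) 1) =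
      oq (dS ((fun _ : Fin 4 => μ) * fun _ => μ) (μ * μ * 1)) := oq_dS_mul _ _ _ _
  rw [mul_one] at h1
  rw [h0, ← h1, oq_dS_scal, one_mul]
  refine oq_dS_one_of (by norm_num) _ ⟨((μ ^ 2 : Fˣ) : F), ?_⟩
  rw [Finset.prod_const, Finset.card_univ, Fintype.card_fin, ← Units.val_mul]
  congr 1
  group

theorem sq_of_conj {X : Type*} [Group X] {t a b : X} (ha : a * a = 1) (h : t * a * t⁻¹ = b) :
    b * b = 1 := by
  rw [← h]
  calc t * a * t⁻¹ * (t * a * t⁻¹) = t * (a * a) * t⁻¹ := by group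
    _ = 1 := by rw [ha, mul_one, mul_inv_cancel]

theorem dB_eq (μ : Fˣ) : tq F * oq (dA μ) * (tq F)⁻¹ = oq (dB μ) := tq_conj (srel_d μ)

theorem dC_eq (μ : Fˣ) : tq F * oq (dB μ) * (tq F)⁻¹ = oq (dC μ) := tq_conj (srel_d μ).cyc

theorem dB_mul (μ : Fˣ) : oq (dB μ) * oq (dB μ) = 1 := sq_of_conj (dA_mul μ) (dB_eq μ)

theorem dC_mul (μ : Fˣ) : oq (dC μ) * oq (dC μ) = 1 := sq_of_conj (dB_mul μ) (dC_eq μ)

theorem dA_dB (μ : Fˣ) : Commute (oq (dA μ)) (oq (dB μ)) := by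
  have h1 : oq (dA μ) * oq (dB μ) = _ := oq_dS_mul _ _ _ _
  have h2 : oq (dB μ) * oq (dA μ) = _ := oq_dS_mul _ _ _ _
  change oq (dA μ) * oq (dB μ) = oq (dB μ) * oq (dA μ)
  rw [h1, h2]
  congr 2
  · exact mul_comm _ _
  · exact mul_comm _ _

theorem eq_of_prod {X : Type*} [Group X] {x c : X} (h : x * c = 1) (hc : c * c = 1) : x = c :=
  mul_right_cancel (h.trans hc.symm)

theorem dC_prod (μ : Fˣ) : oq (dC μ) = oq (dA μ) * oq (dB μ) := by
  refine (eq_of_prod ?_ (dC_mul μ)).symm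
  have h1 : oq (dA μ) * oq (dB μ) = _ := oq_dS_mul _ _ _ _
  rw [h1]
  have h2 : oq (dS ((fun _ : Fin 4 => μ) * fun i => if i = 0 then μ ^ 2 else μ) (μ * μ ^ 3)) *
    oq (dC μ) = _ := oq_dS_mul _ _ _ _
  rw [h2, ← oq_dS_scal (m := 4) (μ ^ 3)]
  congr 2
  · funext i
    simp only [Pi.mul_apply]
    by_cases hi : i = 0
    · simp only [hi, if_true]; group
    · simp only [if_neg hi, pow_succ, pow_zero, one_mul]
  · group

theorem k_dA (μ : Fˣ) : oq (kS F) * oq (dA μ) * (oq (kS F))⁻¹ = oq (dB μ) := by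
  have h1 : oq (kS F) * oq (dA μ) = oq (dS (fun j : Fin 4 => if j = 0 then μ * μ⁻¹ else μ) μ) * oq (kS F) :=
    oq_swS_dS _ _ _ _ _
  rw [mul_inv_eq_of_eq_mul h1]
  refine eq_of_prod ?_ (dB_mul μ)
  have h2 : oq (dS (fun j : Fin 4 => if j = 0 then μ * μ⁻¹ else μ) μ) * oq (dB μ) = _ :=
    oq_dS_mul _ _ _ _
  rw [h2, ← oq_dS_scal (m := 4) (μ ^ 2)]
  congr 2
  · funext i
    simp only [Pi.mul_apply]
    by_cases hi : i = 0
    · simp only [hi, if_true]; group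
    · simp only [if_neg hi, pow_succ, pow_zero, one_mul]
  · group

theorem conj_swap {X : Type*} [Group X] {k a b : X} (hk : k * k = 1) (h : k * a * k⁻¹ = b) :
    k * b * k⁻¹ = a := by
  have hkinv : k⁻¹ = k := inv_eq_of_mul_eq_one_left hk
  rw [← h, hkinv]
  calc k * (k * a * k) * k = (k * k) * a * (k * k) := by group
    _ = _ := by rw [hk, one_mul, mul_one]

theorem isSquare_ratio {μ : Fˣ} (h : ¬ IsSquare (μ : F)) (σ : RingAut F) :
    ∃ ρ : Fˣ, Units.map ((σ : F ≃+* F) : F →* F) μ = μ * (ρ * ρ) := by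
  have h1 : ¬ IsSquare (σ (μ : F)) := by
    intro h2
    apply h
    have := h2.map (σ : F ≃+* F).symm
    rwa [RingEquiv.symm_apply_apply] at this
  have h2 : IsSquare (((μ⁻¹ : Fˣ) : F) * σ (μ : F)) := by
    refine isSquare_mul_of_not ?_ h1
    intro h3
    apply h
    have := h3.inv
    rwa [← Units.val_inv_eq_inv_val, inv_inv] at this
  obtain ⟨r, hr⟩ := h2
  have hr0 : r ≠ 0 := by
    rintro rfl
    rw [mul_zero] at hr
    have h4 : σ (μ : F) ≠ 0 := by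
      rw [Ne, EmbeddingLike.map_eq_zero_iff]; exact μ.ne_zero
    exact (mul_ne_zero (μ⁻¹).ne_zero h4) hr
  refine ⟨Units.mk0 r hr0, Units.ext ?_⟩
  rw [Units.val_mul, Units.val_mul, Units.val_mk0, ← hr, ← mul_assoc, ← Units.val_mul,
    mul_inv_cancel, Units.val_one, one_mul]
  rfl

theorem fr_dA {μ : Fˣ} (h : ¬ IsSquare (μ : F)) (σ : RingAut F) :
    Commute (frH 4 F σ) (oq (dA μ)) := by
  have h0 : oq (frS 4 σ) * oq (dA μ) = _ * oq (frS 4 σ) := oq_frS_dS _ _ _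
  change oq (frS 4 σ) * oq (dA μ) = oq (dA μ) * oq (frS 4 σ)
  rw [h0]
  congr 1
  obtain ⟨ρ, hρ⟩ := isSquare_ratio h σ
  have hρ' : (Units.map ((σ : F ≃+* F) : F →* F)) μ = μ * (ρ * ρ) := hρ
  rw [hρ']
  have h1 : oq (dS (fun _ : Fin 4 => ρ) (ρ * ρ)) * oq (dS (fun _ : Fin 4 => ρ) 1) =
    oq (dS ((fun _ : Fin 4 => ρ) * fun _ => ρ) (ρ * ρ * 1)) := oq_dS_mul _ _ _ _
  have h2 : oq (dA μ) * oq (dS ((fun _ : Fin 4 => ρ) * fun _ => ρ) (ρ * ρ * 1)) = _ :=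
    oq_dS_mul _ _ _ _
  have h3 : oq (dS (fun _ : Fin 4 => ρ) 1) = 1 :=
    oq_dS_one_of (by norm_num) (fun _ => ρ) ⟨((ρ ^ 2 : Fˣ) : F), by
      rw [Finset.prod_const, Finset.card_univ, Fintype.card_fin, ← Units.val_mul]
      congr 1
      group⟩
  rw [oq_dS_scal, h3, one_mul] at h1
  rw [← h1, mul_one, mul_one] at h2
  exact h2.symm

theorem card_out_D4_odd {p f : ℕ} [hp : Fact p.Prime] (hf : 1 ≤ f) (hF : Fintype.card F = p ^ f)
    (hp2 : p ≠ 2) :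
    Nat.card (Cfsg.Out (CG (qfPlus 4 F) ⧸ Subgroup.center (CG (qfPlus 4 F)))) =
      24 * Nat.card (RingAut F) := by
  have hodd : Odd (Fintype.card F) := by
    rw [hF]
    exact (hp.out.odd_of_ne_two hp2).pow
  rw [card_out_plus hf hF (le_refl 4), if_pos rfl, if_neg hp2, if_pos,
    (AutPSL.ringAut_cyclic_card F hF).2]
  obtain ⟨k, hk⟩ := hodd
  rw [hF] at hk
  rw [hk]
  have : 4 * (2 * k + 1 - 1) / 2 = 4 * k := by omega
  rw [this]
  exact ⟨2 * k, by ring⟩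

theorem not_sq_pow3 {μ : Fˣ} (hμ : ¬ IsSquare (μ : F)) : ¬ IsSquare ((μ ^ 3 : Fˣ) : F) := by
  rintro ⟨r, hr⟩
  apply hμ
  refine ⟨r * ((μ⁻¹ : Fˣ) : F), ?_⟩
  have h1 : r * ((μ⁻¹ : Fˣ) : F) * (r * ((μ⁻¹ : Fˣ) : F)) = (r * r) * (((μ⁻¹ * μ⁻¹ : Fˣ)) : F) := by
    rw [Units.val_mul]; ring
  rw [h1, ← hr, ← Units.val_mul]
  congr 1
  group

/-- **`Out(PΩ₈⁺(q))`, `q` odd.** -/
theorem out_D4_odd {p f : ℕ} [hp : Fact p.Prime] (hf : 1 ≤ f) (hF : Fintype.card F = p ^ f)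
    (hp2 : p ≠ 2) : Nonempty (Cfsg.Out (CG (qfPlus 4 F) ⧸ Subgroup.center (CG (qfPlus 4 F))) ≃*
      Equiv.Perm (Fin 4) × RingAut F) := by
  have hodd : Odd (Fintype.card F) := by
    rw [hF]
    exact (hp.out.odd_of_ne_two hp2).pow
  obtain ⟨μ, hμ⟩ := exists_nonsquare_unit hodd
  have htb : tq F * oq (dB μ) * (tq F)⁻¹ = oq (dA μ) * oq (dB μ) := (dC_eq μ).trans (dC_prod μ)
  have hfc : ∀ σ : RingAut F, oq (dA μ) * oq (dB μ) * frH 4 F σ ≠ 1 := by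
    intro σ h
    rw [← dC_prod] at h
    have h1 := fr_eq_one' (by norm_num) rfl h
    subst h1
    have h2 : oq (dC μ) = 1 := by
      have h3 : oq (dC μ) * frH 4 F 1 = oq (dC μ) := by rw [map_one, mul_one]
      rw [← h3]; exact h
    have h4 : oq (dB μ) = 1 := by
      have h5 := dC_eq μ
      rw [h2] at h5
      exact mul_left_cancel (a := tq F) (by rw [mul_one]; exact mul_inv_eq_one.1 h5)
    have h5 : IsSquare ((μ ^ 3 : Fˣ) : F) :=
      isSquare_of_oq (good_plus (F := F) (m := 4) (by norm_num)) (t := dB μ) h4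
    exact not_sq_pow3 hμ h5
  exact recog_S4 (S := osub (qfPlus 4 F)) ((pow_two _).trans (dA_mul μ)) ((pow_two _).trans (dB_mul μ)) (dA_dB μ) tq_pow
    k_mul_k k_conj (dB_eq μ) htb (k_dA μ) (conj_swap k_mul_k (k_dA μ)) tq_not_mem (oq_mem _)
    (fun σ => oq_mem (frS 4 σ)) (oq_mem _) (oq_mem _) fr_tq fr_k (fr_dA hμ)
    (fun σ => fr_eq_one (by norm_num)) (oq_ne_of_mult (by norm_num) hμ rfl)
    (oq_ne_of_mult (by norm_num) (not_sq_pow3 hμ) rfl) hfc (card_out_D4_odd hf hF hp2)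

end Cfsg.Agent.OAut
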