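import Cfsg.Agent.OAut.SmallGrp

/-!
Abstract recognition of `C₂ × R`, `V₄ × R` and `D₈ × R`.
-/

set_option autoImplicit false

namespace Cfsg.Agent.OAut

variable {X R : Type*} [Group X] [Group R]

/-- Recognition of `C₂ × R`. -/
theorem recog_C2 [Finite X] {a : X} {φ : R →* X} {L : Subgroup X} (ha : a * a = 1) (haL : a ∈ L)
    (hφa : ∀ σ, Commute (φ σ) a) (hφL : ∀ σ, φ σ ∈ L → σ = 1) (ha1 : a ≠ 1)
    (hcard : Nat.card X = 2 * Nat.card R) : Nonempty (X ≃* Multiplicative (ZMod 2) × R) := by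
  let Φ := cyc 2 a ((pow_two a).trans ha)
  have hΦ : ∀ k : Multiplicative (ZMod 2), Φ k = a ^ (Multiplicative.toAdd k).val := fun k => rfl
  have hcomm : ∀ (g : Multiplicative (ZMod 2)) (σ : R), Commute (Φ g) (φ σ) := by
    intro g σ
    rw [hΦ]
    exact (hφa σ).symm.pow_left _
  have hinj : Function.Injective (Φ.noncommCoprod φ hcomm) := by
    rw [injective_iff_map_eq_one]
    rintro ⟨g, σ⟩ h
    change Φ g * φ σ = 1 at h
    have h1 : σ = 1 := by
      apply hφL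
      rw [hΦ] at h
      have : φ σ = (a ^ (Multiplicative.toAdd g).val)⁻¹ := eq_inv_of_mul_eq_one_right h
      rw [this]
      exact L.inv_mem (L.pow_mem haL _)
    subst h1
    rw [map_one, mul_one] at h
    have hcases : ∀ g : Multiplicative (ZMod 2), g = 1 ∨ g = Multiplicative.ofAdd 1 := by decide
    rcases hcases g with rfl | rfl
    · rfl
    · exfalso
      have h1 : (1 : ZMod 2).val = 1 := rfl
      change a ^ (1 : ZMod 2).val = 1 at h
      rw [h1, pow_one] at h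
      exact ha1 h
  have hcard' : Nat.card (Multiplicative (ZMod 2) × R) = Nat.card X := by
    rw [Nat.card_prod, hcard]
    congr 1
    exact Nat.card_eq_fintype_card
  have hfin : Finite (Multiplicative (ZMod 2) × R) := Finite.of_injective _ hinj
  have hb : Function.Bijective (Φ.noncommCoprod φ hcomm) :=
    (Nat.bijective_iff_injective_and_card _).2 ⟨hinj, hcard'⟩
  exact ⟨(MulEquiv.ofBijective _ hb).symm⟩

/-- Recognition of `V₄ × R`. -/
theorem recog_V4 [Finite X] {a b : X} {φ : R →* X} {L : Subgroup X} (ha : a * a = 1) (hb : b * b = 1)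
    (hab : Commute a b) (haL : a ∈ L) (hbL : b ∈ L)
    (hφa : ∀ σ, Commute (φ σ) a) (hφb : ∀ σ, Commute (φ σ) b) (hφL : ∀ σ, φ σ ∈ L → σ = 1)
    (ha1 : a ≠ 1) (hb1 : b ≠ 1) (hab1 : a * b ≠ 1)
    (hcard : Nat.card X = 4 * Nat.card R) : Nonempty (X ≃* V4 × R) := by
  let Φ := vhom a b ((pow_two a).trans ha) ((pow_two b).trans hb) hab
  have hΦ : ∀ v : V4, Φ v = a ^ (Multiplicative.toAdd v.1).val * b ^ (Multiplicative.toAdd v.2).val :=
    fun k => rfl
  have hcomm : ∀ (g : V4) (σ : R), Commute (Φ g) (φ σ) := by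
    intro g σ
    rw [hΦ]
    exact Commute.mul_left ((hφa σ).symm.pow_left _) ((hφb σ).symm.pow_left _)
  have hinj : Function.Injective (Φ.noncommCoprod φ hcomm) := by
    rw [injective_iff_map_eq_one]
    rintro ⟨g, σ⟩ h
    change Φ g * φ σ = 1 at h
    have h1 : σ = 1 := by
      apply hφL
      rw [hΦ] at h
      have h2 : φ σ = (a ^ (Multiplicative.toAdd g.1).val * b ^ (Multiplicative.toAdd g.2).val)⁻¹ :=
        eq_inv_of_mul_eq_one_right h
      rw [h2]
      exact L.inv_mem (L.mul_mem (L.pow_mem haL _) (L.pow_mem hbL _))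
    subst h1
    rw [map_one, mul_one] at h
    have hcases : ∀ v : V4, v = 1 ∨ v = (Multiplicative.ofAdd 1, 1) ∨ v = (1, Multiplicative.ofAdd 1) ∨
      v = (Multiplicative.ofAdd 1, Multiplicative.ofAdd 1) := by decide
    have h0 : (0 : ZMod 2).val = 0 := rfl
    have h1 : (1 : ZMod 2).val = 1 := rfl
    rcases hcases g with rfl | rfl | rfl | rfl
    · rfl
    · exfalso
      change a ^ (1 : ZMod 2).val * b ^ (0 : ZMod 2).val = 1 at h
      rw [h0, h1, pow_one, pow_zero, mul_one] at h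
      exact ha1 h
    · exfalso
      change a ^ (0 : ZMod 2).val * b ^ (1 : ZMod 2).val = 1 at h
      rw [h0, h1, pow_one, pow_zero, one_mul] at h
      exact hb1 h
    · exfalso
      change a ^ (1 : ZMod 2).val * b ^ (1 : ZMod 2).val = 1 at h
      rw [h1, pow_one, pow_one] at h
      exact hab1 h
  have hcard' : Nat.card (V4 × R) = Nat.card X := by
    rw [Nat.card_prod, hcard]
    congr 1
    rw [Nat.card_prod, Nat.card_eq_fintype_card]; rfl
  have hfin : Finite (V4 × R) := Finite.of_injective _ hinj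
  have hb : Function.Bijective (Φ.noncommCoprod φ hcomm) :=
    (Nat.bijective_iff_injective_and_card _).2 ⟨hinj, hcard'⟩
  exact ⟨(MulEquiv.ofBijective _ hb).symm⟩

open Classical in
/-- Twisting a homomorphism. -/
noncomputable def twist (φ : R →* X) (r s : X) (hs : s * s = 1) (hsr : s * r * s⁻¹ = r⁻¹)
    (hφs : ∀ σ, Commute (φ σ) s)
    (hφr : ∀ σ, φ σ * r * (φ σ)⁻¹ = r ∨ φ σ * r * (φ σ)⁻¹ = r⁻¹) (hr : r ≠ r⁻¹) : R →* X where
  toFun σ := if φ σ * r * (φ σ)⁻¹ = r then φ σ else φ σ * s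
  map_one' := by rw [map_one, if_pos (by group)]
  map_mul' σ τ := by
    have key : ∀ σ τ, φ (σ * τ) * r * (φ (σ * τ))⁻¹ = φ σ * (φ τ * r * (φ τ)⁻¹) * (φ σ)⁻¹ := by
      intro σ τ; rw [map_mul]; group
    have hinv : ∀ σ, φ σ * r⁻¹ * (φ σ)⁻¹ = (φ σ * r * (φ σ)⁻¹)⁻¹ := by intro σ; group
    rcases hφr σ with h1 | h1 <;> rcases hφr τ with h2 | h2
    · rw [if_pos h1, if_pos h2, if_pos (by rw [key, h2, h1]), map_mul]
    · have h3 : ¬ (φ τ * r * (φ τ)⁻¹ = r) := by rw [h2]; exact hr.symm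
      have h4 : ¬ (φ (σ * τ) * r * (φ (σ * τ))⁻¹ = r) := by
        rw [key, h2, hinv, h1]; exact hr.symm
      rw [if_pos h1, if_neg h3, if_neg h4, map_mul, mul_assoc]
    · have h3 : ¬ (φ σ * r * (φ σ)⁻¹ = r) := by rw [h1]; exact hr.symm
      have h4 : ¬ (φ (σ * τ) * r * (φ (σ * τ))⁻¹ = r) := by
        rw [key, h2, h1]; exact hr.symm
      rw [if_neg h3, if_pos h2, if_neg h4, map_mul, mul_assoc, mul_assoc, (hφs τ).eq]
    · have h3 : ¬ (φ σ * r * (φ σ)⁻¹ = r) := by rw [h1]; exact hr.symm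
      have h3' : ¬ (φ τ * r * (φ τ)⁻¹ = r) := by rw [h2]; exact hr.symm
      have h4 : (φ (σ * τ) * r * (φ (σ * τ))⁻¹ = r) := by
        rw [key, h2, hinv, h1, inv_inv]
      rw [if_neg h3, if_neg h3', if_pos h4, map_mul]
      calc φ σ * φ τ = φ σ * φ τ * (s * s) := by rw [hs, mul_one]
        _ = φ σ * (φ τ * s) * s := by group
        _ = φ σ * (s * φ τ) * s := by rw [(hφs τ).eq]
        _ = _ := by group

theorem recog_D8_aux [Finite X] {r s : X} {φ : R →* X} {L : Subgroup X} (hr4 : r ^ 4 = 1)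
    (hs : s * s = 1) (hsr : s * r * s⁻¹ = r⁻¹) (hrL : r ∈ L) (hsL : s ∈ L)
    (hφs : ∀ σ, Commute (φ σ) s) (hφr : ∀ σ, Commute (φ σ) r)
    (hφL : ∀ σ, φ σ ∈ L → σ = 1) (hr2 : r ^ 2 ≠ 1)
    (hcard : Nat.card X = 8 * Nat.card R) : Nonempty (X ≃* DihedralGroup 4 × R) := by
  obtain ⟨Φ, hΦ1, hΦ2⟩ := H20.exists_dihedralHom (N := 4) hr4 hs hsr
  have hcomm : ∀ (g : DihedralGroup 4) (σ : R), Commute (Φ g) (φ σ) := by
    intro g σ
    rcases g with i | i
    · rw [hΦ1]
      exact (hφr σ).symm.pow_left _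
    · rw [hΦ2]
      exact Commute.mul_left (hφs σ).symm ((hφr σ).symm.pow_left _)
  have hinj : Function.Injective (Φ.noncommCoprod φ hcomm) := by
    rw [injective_iff_map_eq_one]
    rintro ⟨g, σ⟩ h
    change Φ g * φ σ = 1 at h
    have h1 : σ = 1 := by
      apply hφL
      have h2 : φ σ = (Φ g)⁻¹ := eq_inv_of_mul_eq_one_right h
      rw [h2]
      refine L.inv_mem ?_
      rcases g with i | i
      · rw [hΦ1]; exact L.pow_mem hrL _
      · rw [hΦ2]; exact L.mul_mem hsL (L.pow_mem hrL _)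
    subst h1
    rw [map_one, mul_one] at h
    have key : ∀ i : ZMod 4, i = 0 ∨ i.val = 1 ∨ i.val = 2 ∨ i.val = 3 := by decide
    rcases g with i | i
    · rw [hΦ1] at h
      rcases key i with h1 | h1 | h1 | h1
      · rw [h1]; rfl
      · exfalso
        rw [h1, pow_one] at h
        exact hr2 (by rw [h, one_pow])
      · exfalso
        rw [h1] at h
        exact hr2 h
      · exfalso
        rw [h1] at h
        have h2 : r = 1 := by
          calc r = r ^ 3 * r := by rw [h, one_mul]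
            _ = r ^ 4 := (pow_succ r 3).symm
            _ = 1 := hr4
        exact hr2 (by rw [h2, one_pow])
    · exfalso
      rw [hΦ2] at h
      have h1 : s = (r ^ i.val)⁻¹ := eq_inv_of_mul_eq_one_left h
      have h2 : s * r * s⁻¹ = r := by
        rw [h1]
        have : Commute (r ^ i.val) r := (Commute.refl r).pow_left _
        rw [inv_inv, mul_assoc, ← this.eq, ← mul_assoc, inv_mul_cancel, one_mul]
      rw [hsr] at h2
      apply hr2
      calc r ^ 2 = r * r := pow_two r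
        _ = r⁻¹ * r := by rw [h2]
        _ = 1 := inv_mul_cancel r
  have hcard' : Nat.card (DihedralGroup 4 × R) = Nat.card X := by
    rw [Nat.card_prod, DihedralGroup.nat_card, hcard]
  have hfin : Finite (DihedralGroup 4 × R) := Finite.of_injective _ hinj
  have hb : Function.Bijective (Φ.noncommCoprod φ hcomm) :=
    (Nat.bijective_iff_injective_and_card _).2 ⟨hinj, hcard'⟩
  exact ⟨(MulEquiv.ofBijective _ hb).symm⟩

/-- Recognition of `D₈ × R`. -/
theorem recog_D8 [Finite X] {r s : X} {φ : R →* X} {L : Subgroup X} (hr4 : r ^ 4 = 1)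
    (hs : s * s = 1) (hsr : s * r * s⁻¹ = r⁻¹) (hrL : r ∈ L) (hsL : s ∈ L)
    (hφs : ∀ σ, Commute (φ σ) s)
    (hφr : ∀ σ, φ σ * r * (φ σ)⁻¹ = r ∨ φ σ * r * (φ σ)⁻¹ = r⁻¹)
    (hφL : ∀ σ, φ σ ∈ L → σ = 1) (hr2 : r ^ 2 ≠ 1)
    (hcard : Nat.card X = 8 * Nat.card R) : Nonempty (X ≃* DihedralGroup 4 × R) := by
  have hr : r ≠ r⁻¹ := by
    intro h
    apply hr2
    calc r ^ 2 = r * r := pow_two r
      _ = r⁻¹ * r := by rw [← h]
      _ = 1 := inv_mul_cancel r
  obtain ⟨ψ, hψ⟩ : ∃ ψ : R →* X, ψ = twist φ r s hs hsr hφs hφr hr := ⟨_, rfl⟩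
  have h1 : ∀ σ, (φ σ * r * (φ σ)⁻¹ = r ∧ ψ σ = φ σ) ∨ (φ σ * r * (φ σ)⁻¹ = r⁻¹ ∧ ψ σ = φ σ * s) := by
    intro σ
    by_cases h : φ σ * r * (φ σ)⁻¹ = r
    · left; refine ⟨h, ?_⟩
      rw [hψ]; exact if_pos h
    · right
      refine ⟨(hφr σ).resolve_left h, ?_⟩
      rw [hψ]; exact if_neg h
  refine recog_D8_aux (φ := ψ) (L := L) hr4 hs hsr hrL hsL ?_ ?_ ?_ hr2 hcard
  · intro σ
    rcases h1 σ with ⟨-, h⟩ | ⟨-, h⟩
    · rw [h]; exact hφs σ
    · rw [h]; exact (hφs σ).mul_left (Commute.refl s)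
  · intro σ
    rcases h1 σ with ⟨h2, h⟩ | ⟨h2, h⟩
    · rw [h]
      exact mul_inv_eq_iff_eq_mul.1 h2
    · rw [h]
      have h3 : φ σ * s * r * (φ σ * s)⁻¹ = r := by
        calc φ σ * s * r * (φ σ * s)⁻¹ = φ σ * (s * r * s⁻¹) * (φ σ)⁻¹ := by group
          _ = (φ σ * r * (φ σ)⁻¹)⁻¹ := by rw [hsr]; group
          _ = r := by rw [h2, inv_inv]
      exact mul_inv_eq_iff_eq_mul.1 h3
  · intro σ h
    apply hφL
    rcases h1 σ with ⟨-, h2⟩ | ⟨-, h2⟩
    · rwa [h2] at h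
    · rw [h2] at h
      have := L.mul_mem h hsL
      rwa [mul_assoc, hs, mul_one] at this

end Cfsg.Agent.OAut
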