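import Cfsg.Agent.OAut.OutF
import Cfsg.Agent.OAut.OutG

/-!
The outer automorphism group of `PΩ⁺_{2m}(q)`, `m ≥ 5`.
-/

set_option autoImplicit false

namespace Cfsg.Agent.OAut

open QuadraticMap Cfsg.Agent.Orth Cfsg.Agent.ClassO

section L

variable {F V : Type*} [Field F] [AddCommGroup V] [Module F V] {Q : QuadraticForm F V}

/-- The subgroup of classes of (linear) similarities. -/
noncomputable def osubL (Q : QuadraticForm F V) : Subgroup (Cfsg.Out (CG Q ⧸ Subgroup.center (CG Q))) where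
  carrier := {x | ∃ t : SemiSim Q, t.σ = RingEquiv.refl F ∧ x = oq t}
  mul_mem' := by
    rintro _ _ ⟨s, hs, rfl⟩ ⟨t, ht, rfl⟩
    refine ⟨s.comp t, ?_, (oq_comp s t).symm⟩
    change t.σ.trans s.σ = _
    rw [hs, ht]; rfl
  one_mem' := ⟨scal Q 1, rfl, (oq_scal 1).symm⟩
  inv_mem' := by
    rintro _ ⟨s, hs, rfl⟩
    refine ⟨s.inv, ?_, ?_⟩
    · change s.σ.symm = _
      rw [hs]; rfl
    · rw [inv_eq_iff_mul_eq_one, ← oq_comp]
      refine oq_eq_one_of (c := 1) (g := 1) fun v => ?_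
      rw [Units.val_one, one_smul]
      exact s.T.apply_symm_apply v

theorem oq_memL {t : SemiSim Q} (ht : t.σ = RingEquiv.refl F) : oq t ∈ osubL Q := ⟨t, ht, rfl⟩

end L

variable {F : Type*} [Field F] [Fintype F] {m : ℕ}

theorem fr_memL (hm : 3 ≤ m) {σ : RingAut F} (h : frH m F σ ∈ osubL (qfPlus m F)) : σ = 1 := by
  obtain ⟨t, ht, h1⟩ := h
  obtain ⟨t', ht', h2⟩ := (osubL (qfPlus m F)).inv_mem (oq_memL ht)
  refine fr_eq_one' hm ht' ?_
  rw [h1, ← h2, inv_mul_cancel]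

/-- The swap is a reflection. -/
theorem swS_refl (i : Fin m) (v : Fin m ⊕ Fin m → F) :
    (swS i 1 (one_mul 1)).T v = (refl (qfPlus m F) (pw m i (-1)) (by
      rw [q_pw]; exact neg_ne_zero.2 one_ne_zero) : (Fin m ⊕ Fin m → F) ≃ₗ[F] (Fin m ⊕ Fin m → F)) v := by
  rw [refl_apply, q_pw, polar_pw]
  funext j
  rcases j with j | j
  · rw [swS_inl]
    by_cases hj : j = i
    · subst hj
      have e1 : pw m j (-1 : F) (.inl j) = 1 := by simp [pw]
      simp only [Pi.sub_apply, Pi.smul_apply, smul_eq_mul, e1, if_true]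
      rw [inv_neg, inv_one]; ring
    · have e1 : pw m i (-1 : F) (.inl j) = 0 := by simp [pw, hj]
      simp only [Pi.sub_apply, Pi.smul_apply, smul_eq_mul, e1, if_neg hj]
      rw [Units.val_one]; ring
  · rw [swS_inr]
    by_cases hj : j = i
    · subst hj
      have e1 : pw m j (-1 : F) (.inr j) = -1 := by simp [pw]
      simp only [Pi.sub_apply, Pi.smul_apply, smul_eq_mul, e1, if_true]
      rw [inv_neg, inv_one]; ring
    · have e1 : pw m i (-1 : F) (.inr j) = 0 := by simp [pw, hj]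
      simp only [Pi.sub_apply, Pi.smul_apply, smul_eq_mul, e1, if_neg hj]
      rw [Units.val_one]; ring

theorem hd_const (c : Fˣ) (hc : c * c = 1) (v : Fin m ⊕ Fin m → F) :
    (hd m F (fun _ => c) : (Fin m ⊕ Fin m → F) ≃ₗ[F] (Fin m ⊕ Fin m → F)) v = (c : F) • v := by
  rw [hd_apply]
  funext j
  rcases j with j | j
  · rw [dS_inl]; rfl
  · have : c⁻¹ = c := inv_eq_of_mul_eq_one_left hc
    rw [dS_inr, this, one_mul]; rfl

theorem swS_ne (hm : 3 ≤ m) (i : Fin m) : oq (swS (F := F) i 1 (one_mul 1)) ≠ 1 := by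
  intro h
  have G := good_plus (F := F) hm
  obtain ⟨c, g, hcg⟩ := (oq_eq_one_iff G _).1 h
  obtain ⟨e, f, hyp⟩ := G.hyp
  have h1 := (swS (F := F) i 1 (one_mul 1)).polar' (e 0) (f 0)
  rw [hcg, hcg, psl, psr, ap_polar, hyp.ef, if_pos rfl, map_one, mul_one, mul_one] at h1
  have hc : c * c = 1 := Units.ext h1
  have h2 : refl (qfPlus m F) (pw m i (-1)) (by rw [q_pw]; exact neg_ne_zero.2 one_ne_zero) =
      hd m F (fun _ => c) * (g : OGrp (qfPlus m F)) := by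
    refine OGrp_ext fun v => ?_
    rw [← swS_refl, hcg, coe_mul_apply, hd_const c hc]
    rfl
  have h3 := congrArg (parityHom G.nd G.R) h2
  rw [parityHom_refl, _root_.map_mul, parity_hd, one_mul, ((mem_commutator_iff_homs G.nd G.R _).1 g.2).1] at h3
  exact absurd h3 (by decide)

/-- `δ`. -/
noncomputable def dD (m : ℕ) (μ : Fˣ) : SemiSim (qfPlus m F) := dS (fun _ => μ) μ

theorem dD_mul (μ : Fˣ) : oq (dD m μ) * oq (dD m μ) = oq (dS (fun _ : Fin m => μ) 1) := by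
  have h0 : oq (dD m μ) * oq (dD m μ) = oq (dS ((fun _ : Fin m => μ) * fun _ => μ) (μ * μ)) :=
    oq_dS_mul _ _ _ _
  have h1 : oq (dS (fun _ : Fin m => μ) (μ * μ)) * oq (dS (fun _ : Fin m => μ) 1) =
      oq (dS ((fun _ : Fin m => μ) * fun _ => μ) (μ * μ * 1)) := oq_dS_mul _ _ _ _
  rw [mul_one] at h1
  rw [h0, ← h1, oq_dS_scal, one_mul]

theorem oq_dS_eq (hm : 3 ≤ m) {a b : Fin m → Fˣ}
    (h : IsSquare (((∏ i, a i) * (∏ i, b i)⁻¹ : Fˣ) : F)) : oq (dS a 1) = oq (dS b 1) := by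
  have h1 : oq (dS (a * b⁻¹) 1) = 1 := by
    refine oq_dS_one_of hm _ ?_
    simp only [Pi.mul_apply, Finset.prod_mul_distrib, Pi.inv_apply, Finset.prod_inv_distrib]
    exact h
  have h2 : oq (dS (a * b⁻¹) 1) * oq (dS b 1) = oq (dS (a * b⁻¹ * b) (1 * 1)) := oq_dS_mul _ _ _ _
  rw [h1, one_mul, inv_mul_cancel_right, one_mul] at h2
  exact h2.symm

/-- `z`. -/
noncomputable def dZ (i : Fin m) (μ : Fˣ) : SemiSim (qfPlus m F) := dS (Pi.mulSingle i μ⁻¹) 1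

theorem prod_single (i : Fin m) (μ : Fˣ) : ∏ j, (Pi.mulSingle i μ : Fin m → Fˣ) j = μ := by
  rw [Finset.prod_pi_mulSingle', if_pos (Finset.mem_univ _)]

theorem dZ_mul (hm : 3 ≤ m) (i : Fin m) (μ : Fˣ) : oq (dZ i μ) * oq (dZ i μ) = 1 := by
  have h0 : oq (dZ i μ) * oq (dZ i μ) = oq (dS (Pi.mulSingle i μ⁻¹ * Pi.mulSingle i μ⁻¹) (1 * 1)) :=
    oq_dS_mul _ _ _ _
  rw [h0, one_mul]
  refine oq_dS_one_of hm _ ⟨((μ⁻¹ : Fˣ) : F), ?_⟩
  simp only [Pi.mul_apply, Finset.prod_mul_distrib]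
  rw [prod_single, Units.val_mul]

theorem sw_dD (i : Fin m) (μ : Fˣ) : oq (swS i 1 (one_mul 1)) * oq (dD m μ) *
    (oq (swS i 1 (one_mul 1)))⁻¹ = oq (dD m μ) * oq (dZ i μ) := by
  have h1 : oq (swS i 1 (one_mul 1)) * oq (dD m μ) =
    oq (dS (fun j : Fin m => if j = i then μ * μ⁻¹ else μ) μ) * oq (swS i 1 (one_mul 1)) :=
    oq_swS_dS _ _ _ _ _
  rw [mul_inv_eq_of_eq_mul h1]
  have h2 : oq (dD m μ) * oq (dZ i μ) = oq (dS ((fun _ : Fin m => μ) * Pi.mulSingle i μ⁻¹) (μ * 1)) :=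
    oq_dS_mul _ _ _ _
  rw [h2, mul_one]
  congr 2
  funext j
  rw [Pi.mul_apply]
  by_cases hj : j = i
  · subst hj
    rw [if_pos rfl, Pi.mulSingle_eq_same]
  · rw [if_neg hj, Pi.mulSingle_eq_of_ne hj, mul_one]

theorem fr_dD {μ : Fˣ} (h : ¬ IsSquare (μ : F)) (σ : RingAut F) : ∃ ρ : Fˣ,
    frH m F σ * oq (dD m μ) * (frH m F σ)⁻¹ = oq (dD m μ) * oq (dS (fun _ : Fin m => ρ) 1) := by
  have h0 : oq (frS m σ) * oq (dD m μ) = _ * oq (frS m σ) := oq_frS_dS _ _ _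
  obtain ⟨ρ, hρ⟩ := isSquare_ratio h σ
  refine ⟨ρ, ?_⟩
  have h0' := mul_inv_eq_of_eq_mul h0
  change oq (frS m σ) * oq (dD m μ) * (oq (frS m σ))⁻¹ = _
  rw [h0']
  have hρ' : (Units.map ((σ : F ≃+* F) : F →* F)) μ = μ * (ρ * ρ) := hρ
  rw [hρ']
  have h1 : oq (dS (fun _ : Fin m => ρ) (ρ * ρ)) * oq (dS (fun _ : Fin m => ρ) 1) =
    oq (dS ((fun _ : Fin m => ρ) * fun _ => ρ) (ρ * ρ * 1)) := oq_dS_mul _ _ _ _
  have h2 : oq (dD m μ) * oq (dS ((fun _ : Fin m => ρ) * fun _ => ρ) (ρ * ρ * 1)) = _ :=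
    oq_dS_mul _ _ _ _
  rw [oq_dS_scal, one_mul] at h1
  rw [← h1, mul_one] at h2
  exact h2.symm

theorem fr_sw (σ : RingAut F) (i : Fin m) : Commute (frH m F σ) (oq (swS i 1 (one_mul 1))) :=
  oq_frS_swS σ i 1 _ (by rw [Units.val_one, map_one])

theorem sw_mul (i : Fin m) : oq (swS (F := F) i 1 (one_mul 1)) * oq (swS i 1 (one_mul 1)) = 1 :=
  oq_swS_mul _ _ _

/-- **`Out(PΩ⁺_{2m}(2^f))`**, `m ≥ 5`. -/
theorem out_plus_even {f : ℕ} (hf : 1 ≤ f) (hF : Fintype.card F = 2 ^ f) (hm : 5 ≤ m) :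
    Nonempty (Cfsg.Out (CG (qfPlus m F) ⧸ Subgroup.center (CG (qfPlus m F))) ≃*
      Multiplicative (ZMod 2) × RingAut F) := by
  have h2 : Fact (Nat.Prime 2) := ⟨Nat.prime_two⟩
  refine recog_C2 (L := osubL (qfPlus m F)) (φ := frH m F) (sw_mul ⟨0, by omega⟩) (oq_memL rfl)
    (fun σ => fr_sw σ _) (fun σ => fr_memL (by omega)) (swS_ne (by omega) _) ?_
  rw [card_out_plus hf hF (by omega), if_neg (by omega), if_pos rfl,
    (AutPSL.ringAut_cyclic_card F hF).2, one_mul]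

theorem isSquare_pow_even {μ : Fˣ} {k : ℕ} (h : Even k) : IsSquare ((μ ^ k : Fˣ) : F) := by
  obtain ⟨j, rfl⟩ := h
  exact ⟨((μ ^ j : Fˣ) : F), by rw [← Units.val_mul, pow_add]⟩

theorem prod_const_fin (μ : Fˣ) : ∏ _j : Fin m, μ = μ ^ m := by
  rw [Finset.prod_const, Finset.card_univ, Fintype.card_fin]

/-- Square roots of unity. -/
theorem sq_one_cases {ε : Fˣ} (h : ε * ε = 1) : ε = 1 ∨ ε = -1 := by
  have h1 : (ε : F) * ε = 1 := by rw [← Units.val_mul, h, Units.val_one]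
  rcases mul_self_eq_one_iff.1 h1 with h2 | h2
  · left; exact Units.ext h2
  · right; exact Units.ext (by rw [h2, Units.val_neg, Units.val_one])

theorem isSquare_neg_one_pow_unit {q : ℕ} (hF : Fintype.card F = q) (hodd : Odd q) (h4 : q ^ m % 4 = 1)
    {ε : Fˣ} (hε : ε * ε = 1) : IsSquare ((ε ^ m : Fˣ) : F) := by
  rcases sq_one_cases hε with rfl | rfl
  · rw [one_pow]; exact ⟨1, by simp⟩
  · have := (S0790.isSquare_neg_one_pow hF hodd m).2 h4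
    rw [Units.val_pow_eq_pow_val, Units.val_neg, Units.val_one]
    exact this

theorem dZ_ne (hm : 3 ≤ m) {q : ℕ} (hF : Fintype.card F = q) (hodd : Odd q) (h4 : q ^ m % 4 = 1)
    (i : Fin m) {μ : Fˣ} (hμ : ¬ IsSquare (μ : F)) : oq (dZ i μ) ≠ 1 := by
  intro h
  obtain ⟨ε, hε, h1⟩ := (oq_dS_one_iff hm _).1 h
  rw [prod_single] at h1
  have h2 := isSquare_neg_one_pow_unit hF hodd h4 hε
  apply hμ
  obtain ⟨r, hr⟩ := h1
  obtain ⟨s, hs⟩ := h2
  have hr0 : r ≠ 0 := by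
    rintro rfl
    rw [mul_zero] at hr
    exact (Units.ne_zero _) hr
  refine ⟨s * r⁻¹, ?_⟩
  rw [Units.val_mul, Units.val_inv_eq_inv_val] at hr
  have hμ0 := μ.ne_zero
  have h3 : (μ : F) * (r * r) = s * s := by
    rw [← hr, ← hs, ← mul_assoc, mul_inv_cancel₀ hμ0, one_mul]
  field_simp
  rw [pow_two, pow_two, ← h3]

theorem card_out_plus_D8 {p f : ℕ} [hp : Fact p.Prime] (hf : 1 ≤ f) (hF : Fintype.card F = p ^ f)
    (hp2 : p ≠ 2) (hm : 5 ≤ m) (h4 : (p ^ f) ^ m % 4 = 1) :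
    Nat.card (Cfsg.Out (CG (qfPlus m F) ⧸ Subgroup.center (CG (qfPlus m F)))) =
      8 * Nat.card (RingAut F) := by
  have hodd : Odd (p ^ f) := (hp.out.odd_of_ne_two hp2).pow
  rw [card_out_plus hf hF (by omega), if_neg (by omega), if_neg hp2,
    if_pos ((even_iff_pow_mod hodd).2 h4), (AutPSL.ringAut_cyclic_card F hF).2, one_mul]

theorem card_out_plus_V4 {p f : ℕ} [hp : Fact p.Prime] (hf : 1 ≤ f) (hF : Fintype.card F = p ^ f)
    (hp2 : p ≠ 2) (hm : 5 ≤ m) (h4 : ¬ (p ^ f) ^ m % 4 = 1) :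
    Nat.card (Cfsg.Out (CG (qfPlus m F) ⧸ Subgroup.center (CG (qfPlus m F)))) =
      4 * Nat.card (RingAut F) := by
  have hodd : Odd (p ^ f) := (hp.out.odd_of_ne_two hp2).pow
  rw [card_out_plus hf hF (by omega), if_neg (by omega), if_neg hp2,
    if_neg (fun h => h4 ((even_iff_pow_mod hodd).1 h)), (AutPSL.ringAut_cyclic_card F hF).2, one_mul]

/-- Abstract computation, `m` even. -/
theorem abs_even {X : Type*} [Group X] {δ s z : X} (hδ : δ * δ = 1) (hs : s * s = 1) (hz : z * z = 1)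
    (h : s * δ * s⁻¹ = δ * z) : (δ * s) ^ 2 = z ∧ (δ * s) ^ 4 = 1 ∧ s * (δ * s) * s⁻¹ = (δ * s)⁻¹ := by
  have hsinv : s⁻¹ = s := inv_eq_of_mul_eq_one_left hs
  have hδinv : δ⁻¹ = δ := inv_eq_of_mul_eq_one_left hδ
  rw [hsinv] at h
  have h1 : (δ * s) ^ 2 = z := by
    calc (δ * s) ^ 2 = δ * (s * δ * s) := by rw [pow_two]; group
      _ = (δ * δ) * z := by rw [h]; group
      _ = z := by rw [hδ, one_mul]
  refine ⟨h1, ?_, ?_⟩
  · calc (δ * s) ^ 4 = (δ * s) ^ 2 * (δ * s) ^ 2 := by rw [← pow_add]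
      _ = 1 := by rw [h1, hz]
  · rw [mul_inv_rev, hδinv, hsinv]
    calc s * (δ * s) * s = s * δ * (s * s) := by group
      _ = _ := by rw [hs, mul_one]

/-- Abstract computation, `m` odd. -/
theorem abs_odd {X : Type*} [Group X] {δ s z : X} (hδ : δ * δ = z) (hz : z * z = 1)
    (h : s * δ * s⁻¹ = δ * z) : δ ^ 2 = z ∧ δ ^ 4 = 1 ∧ s * δ * s⁻¹ = δ⁻¹ ∧ δ * z = δ⁻¹ := by
  have h1 : δ * z = δ⁻¹ := by
    rw [eq_inv_iff_mul_eq_one, ← hδ]
    calc δ * (δ * δ) * δ = (δ * δ) * (δ * δ) := by group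
      _ = 1 := by rw [hδ, hz]
  refine ⟨by rw [pow_two, hδ], ?_, by rw [h, h1], h1⟩
  calc δ ^ 4 = (δ * δ) * (δ * δ) := by simp only [pow_succ, pow_zero, one_mul, mul_assoc]
    _ = 1 := by rw [hδ, hz]

/-- **`Out(PΩ⁺_{2m}(q))`**, `m ≥ 5`, `q` odd, `-1 ∈ Ω`. -/
theorem out_plus_D8 {p f : ℕ} [hp : Fact p.Prime] (hf : 1 ≤ f) (hF : Fintype.card F = p ^ f)
    (hp2 : p ≠ 2) (hm : 5 ≤ m) (h4 : (p ^ f) ^ m % 4 = 1) :
    Nonempty (Cfsg.Out (CG (qfPlus m F) ⧸ Subgroup.center (CG (qfPlus m F))) ≃*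
      DihedralGroup 4 × RingAut F) := by
  have hodd : Odd (p ^ f) := (hp.out.odd_of_ne_two hp2).pow
  obtain ⟨μ, hμ⟩ := exists_nonsquare_unit (F := F) (by rw [hF]; exact hodd)
  have hm3 : 3 ≤ m := by omega
  obtain ⟨i⟩ : Nonempty (Fin m) := ⟨⟨0, by omega⟩⟩
  have hz := dZ_mul (F := F) hm3 i μ
  have hz1 := dZ_ne hm3 hF hodd h4 i hμ
  rcases Nat.even_or_odd m with he | ho
  · have hδ : oq (dD m μ) * oq (dD m μ) = 1 := by
      rw [dD_mul]
      refine oq_dS_one_of hm3 _ ?_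
      rw [prod_const_fin]
      exact isSquare_pow_even he
    obtain ⟨a1, a2, a3⟩ := abs_even hδ (sw_mul i) hz (sw_dD i μ)
    have hφδ : ∀ σ : RingAut F, Commute (frH m F σ) (oq (dD m μ)) := by
      intro σ
      obtain ⟨ρ, hρ⟩ := fr_dD (m := m) hμ σ
      rw [oq_dS_one_of hm3 (fun _ => ρ) (by rw [prod_const_fin]; exact isSquare_pow_even he),
        mul_one] at hρ
      exact mul_inv_eq_iff_eq_mul.1 hρ
    refine recog_D8 (L := osubL (qfPlus m F)) (φ := frH m F) a2 (sw_mul i) a3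
      (Subgroup.mul_mem _ (oq_memL rfl) (oq_memL rfl)) (oq_memL rfl) (fun σ => fr_sw σ i) ?_
      (fun σ => fr_memL hm3) (by rw [a1]; exact hz1) (card_out_plus_D8 hf hF hp2 hm h4)
    intro σ
    left
    exact mul_inv_eq_of_eq_mul ((hφδ σ).mul_right (fr_sw σ i))
  · have hδ : oq (dD m μ) * oq (dD m μ) = oq (dZ i μ) := by
      rw [dD_mul]
      refine oq_dS_eq hm3 ?_
      rw [prod_const_fin, prod_single, inv_inv, ← pow_succ]
      exact isSquare_pow_even ho.add_one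
    obtain ⟨a1, a2, a3, a4⟩ := abs_odd hδ hz (sw_dD i μ)
    refine recog_D8 (L := osubL (qfPlus m F)) (φ := frH m F) a2 (sw_mul i) a3
      (oq_memL rfl) (oq_memL rfl) (fun σ => fr_sw σ i) ?_
      (fun σ => fr_memL hm3) (by rw [a1]; exact hz1) (card_out_plus_D8 hf hF hp2 hm h4)
    intro σ
    obtain ⟨ρ, hρ⟩ := fr_dD (m := m) hμ σ
    by_cases hρ2 : IsSquare ((ρ ^ m : Fˣ) : F)
    · left
      rw [hρ, oq_dS_one_of hm3 (fun _ => ρ) (by rw [prod_const_fin]; exact hρ2), mul_one]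
    · right
      rw [hρ, ← a4]
      congr 1
      refine oq_dS_eq hm3 ?_
      rw [prod_const_fin, prod_single, inv_inv, Units.val_mul]
      exact isSquare_mul_of_not hρ2 hμ

/-- **`Out(PΩ⁺_{2m}(q))`**, `m ≥ 5`, `q` odd, `-1 ∉ Ω`. -/
theorem out_plus_V4 {p f : ℕ} [hp : Fact p.Prime] (hf : 1 ≤ f) (hF : Fintype.card F = p ^ f)
    (hp2 : p ≠ 2) (hm : 5 ≤ m) (h4 : ¬ (p ^ f) ^ m % 4 = 1) :
    Nonempty (Cfsg.Out (CG (qfPlus m F) ⧸ Subgroup.center (CG (qfPlus m F))) ≃*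
      V4 × RingAut F) := by
  have hodd : Odd (p ^ f) := (hp.out.odd_of_ne_two hp2).pow
  obtain ⟨μ, hμ⟩ := exists_nonsquare_unit (F := F) (by rw [hF]; exact hodd)
  have hm3 : 3 ≤ m := by omega
  obtain ⟨i⟩ : Nonempty (Fin m) := ⟨⟨0, by omega⟩⟩
  have hneg : ¬ IsSquare ((((-1 : Fˣ) ^ m : Fˣ)) : F) := by
    rw [Units.val_pow_eq_pow_val, Units.val_neg, Units.val_one]
    rw [S0790.isSquare_neg_one_pow hF hodd m]
    exact h4
  have hall : ∀ a : Fin m → Fˣ, oq (dS a 1) = 1 := by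
    intro a
    rw [oq_dS_one_iff hm3]
    by_cases ha : IsSquare (((∏ i, a i) : Fˣ) : F)
    · exact ⟨1, one_mul 1, by rwa [one_pow, mul_one]⟩
    · refine ⟨-1, by rw [neg_mul_neg, one_mul], ?_⟩
      rw [Units.val_mul]
      exact isSquare_mul_of_not ha hneg
  have hsδ : Commute (oq (swS i 1 (one_mul 1))) (oq (dD m μ)) := by
    have h1 := sw_dD i μ
    rw [show oq (dZ i μ) = 1 from hall _, mul_one] at h1
    exact mul_inv_eq_iff_eq_mul.1 h1
  refine recog_V4 (L := osubL (qfPlus m F)) (φ := frH m F) (sw_mul i)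
    (by rw [dD_mul]; exact hall _) hsδ (oq_memL rfl) (oq_memL (t := dD m μ) rfl)
    (fun σ => fr_sw σ i) ?_ (fun σ => fr_memL hm3) (swS_ne hm3 i) ?_ ?_
    (card_out_plus_V4 hf hF hp2 hm h4)
  · intro σ
    obtain ⟨ρ, hρ⟩ := fr_dD (m := m) hμ σ
    rw [hall, mul_one] at hρ
    exact mul_inv_eq_iff_eq_mul.1 hρ
  · intro h
    exact hμ (isSquare_of_oq (good_plus (F := F) hm3) h)
  · intro h
    have h1 : oq ((swS i 1 (one_mul 1)).comp (dD m μ)) = 1 := by rw [oq_comp]; exact h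
    have h2 := isSquare_of_oq (good_plus (F := F) hm3) h1
    change IsSquare ((1 : F) * (μ : F)) at h2
    rw [one_mul] at h2
    exact hμ h2

end Cfsg.Agent.OAut
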